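import Cfsg.Agent.Lib.Schur.Ru.P2.Data

/-!
# Fusion letters, part 3
-/

set_option autoImplicit false
set_option maxRecDepth 100000
set_option maxHeartbeats 0

namespace Cfsg.Agent.Lib.Schur.Ru.P2

open Cfsg.Agent.Lib.Schur.PcMain Cfsg.Agent.Lib.Schur.PcPerm Cfsg.Agent.Lib.Schur.PcPerm2
open Cfsg.Agent.Lib.Schur.Ru.Base
open Cfsg.Agent.Lib.PermComp.Core Cfsg.Agent.Lib.Schur.Slp2

theorem let_1_11 : letOK 4060 12 4095 idc C codes conj 1 11 = true := by decide +kernel

theorem let_2_0 : letOK 4060 12 4095 idc C codes conj 2 0 = true := by decide +kernel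

theorem let_2_1 : letOK 4060 12 4095 idc C codes conj 2 1 = true := by decide +kernel

theorem let_2_2 : letOK 4060 12 4095 idc C codes conj 2 2 = true := by decide +kernel

theorem let_2_3 : letOK 4060 12 4095 idc C codes conj 2 3 = true := by decide +kernel

theorem let_2_4 : letOK 4060 12 4095 idc C codes conj 2 4 = true := by decide +kernel

theorem let_2_5 : letOK 4060 12 4095 idc C codes conj 2 5 = true := by decide +kernel

theorem let_2_6 : letOK 4060 12 4095 idc C codes conj 2 6 = true := by decide +kernel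

end Cfsg.Agent.Lib.Schur.Ru.P2
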