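import Cfsg.Agent.Lib.Schur.Ru.P2.Data

/-!
# Fusion letters, part 4
-/

set_option autoImplicit false
set_option maxRecDepth 100000
set_option maxHeartbeats 0

namespace Cfsg.Agent.Lib.Schur.Ru.P2

open Cfsg.Agent.Lib.Schur.PcMain Cfsg.Agent.Lib.Schur.PcPerm Cfsg.Agent.Lib.Schur.PcPerm2
open Cfsg.Agent.Lib.Schur.Ru.Base
open Cfsg.Agent.Lib.PermComp.Core Cfsg.Agent.Lib.Schur.Slp2

theorem let_2_7 : letOK 4060 12 4095 idc C codes conj 2 7 = true := by decide +kernel

theorem let_2_8 : letOK 4060 12 4095 idc C codes conj 2 8 = true := by decide +kernel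

theorem let_2_9 : letOK 4060 12 4095 idc C codes conj 2 9 = true := by decide +kernel

theorem let_2_10 : letOK 4060 12 4095 idc C codes conj 2 10 = true := by decide +kernel

theorem let_2_11 : letOK 4060 12 4095 idc C codes conj 2 11 = true := by decide +kernel

theorem let_2_12 : letOK 4060 12 4095 idc C codes conj 2 12 = true := by decide +kernel

end Cfsg.Agent.Lib.Schur.Ru.P2
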