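import Cfsg.Agent.Lib.Schur.Ru.P2.Data

/-!
# The elements of the Sylow subgroup are distinct
-/

set_option autoImplicit false
set_option maxRecDepth 100000
set_option maxHeartbeats 0

namespace Cfsg.Agent.Lib.Schur.Ru.P2

open Cfsg.Agent.Lib.Schur.PcMain Cfsg.Agent.Lib.Schur.PcPerm Cfsg.Agent.Lib.Schur.PcPerm2
open Cfsg.Agent.Lib.Schur.Ru.Base
open Cfsg.Agent.Lib.PermComp.Core Cfsg.Agent.Lib.Schur.Slp2

theorem ord_ok : ordOK 4060 12 4095 idc C codes base ord = true := by decide +kernel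

end Cfsg.Agent.Lib.Schur.Ru.P2
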